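import Cfsg.Agent.Lib.Helper60.SU3.Fr5a0
import Cfsg.Agent.Lib.Helper60.SU3.Fr5a1
import Cfsg.Agent.Lib.Helper60.SU3.Fr5a2
import Cfsg.Agent.Lib.Helper60.SU3.Fr5a3
import Cfsg.Agent.Lib.Helper60.SU3.Fr5a4

set_option autoImplicit false

/-! # SU_3(5): orthogonal frames of ternary forms over `ZMod 5` (the check is cut in 25 slices,
to keep the memory of each kernel computation small) -/

namespace Cfsg.Agent.Lib.Helper60.SU3

open Cfsg.Agent.Lib.Helper37.SUSmall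

theorem zmod5_cases : ∀ a : ZMod 5, a = 0 ∨ a = 1 ∨ a = 2 ∨ a = 3 ∨ a = 4 := by decide

theorem frame5L : ∀ a b c d e f : ZMod 5, dt a b c d e f ≠ 0 →
    ∃ x0 x1 x2 : ZMod 5, bl a b c d e f x0 x1 x2 x0 x1 x2 = dt a b c d e f ∧
    ∃ y0 y1 y2 : ZMod 5, bl a b c d e f x0 x1 x2 y0 y1 y2 = 0 ∧
      bl a b c d e f y0 y1 y2 y0 y1 y2 = dt a b c d e f ∧
    ∃ z0 z1 z2 : ZMod 5, bl a b c d e f x0 x1 x2 z0 z1 z2 = 0 ∧
      bl a b c d e f y0 y1 y2 z0 z1 z2 = 0 ∧
      bl a b c d e f z0 z1 z2 z0 z1 z2 = dt a b c d e f := by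
  intro a b
  rcases zmod5_cases a with rfl | rfl | rfl | rfl | rfl <;>
    rcases zmod5_cases b with rfl | rfl | rfl | rfl | rfl
  · exact frame5_0_0
  · exact frame5_0_1
  · exact frame5_0_2
  · exact frame5_0_3
  · exact frame5_0_4
  · exact frame5_1_0
  · exact frame5_1_1
  · exact frame5_1_2
  · exact frame5_1_3
  · exact frame5_1_4
  · exact frame5_2_0
  · exact frame5_2_1
  · exact frame5_2_2
  · exact frame5_2_3
  · exact frame5_2_4
  · exact frame5_3_0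
  · exact frame5_3_1
  · exact frame5_3_2
  · exact frame5_3_3
  · exact frame5_3_4
  · exact frame5_4_0
  · exact frame5_4_1
  · exact frame5_4_2
  · exact frame5_4_3
  · exact frame5_4_4

end Cfsg.Agent.Lib.Helper60.SU3
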