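import Cfsg.Agent.Lib.Helper60.SU3.S1

set_option autoImplicit false

/-! # su_small wave U3 (helper5), piece U3-S2 -/

namespace Cfsg.Agent.Lib.Helper60.SU3

open Cfsg Cfsg.Geo Matrix Cfsg.Agent.Lib.Helper5.SUAsch Cfsg.Agent.Lib.Helper13
  Cfsg.Agent.Lib.Helper9.AschU
open scoped MatrixGroups

variable {F : Type*} [Field F] [Fintype F]

omit [Fintype F] in
theorem mem_map_conj_iff (B : Subgroup (GL (Fin 3) F)) (P g : GL (Fin 3) F) :
    g ∈ B.map (MulAut.conj P).toMonoidHom ↔ P⁻¹ * g * P ∈ B := by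
  constructor
  · rintro ⟨y, hy, rfl⟩
    have : P⁻¹ * ((MulAut.conj P).toMonoidHom y) * P = y := by
      simp [MulAut.conj_apply, mul_assoc]
    rw [this]
    exact hy
  · intro h
    refine ⟨_, h, ?_⟩
    simp [MulAut.conj_apply, mul_assoc]

/-- U3-S2 -/
theorem e3s_normal (hF : Fintype.card F = 5 ^ 2) (F₀ : Subfield F) (P : GL (Fin 3) F)
    (hc : Fintype.card F = Nat.card F₀ ^ 2)
    (hr : IsFormRationalStructure (hermForm 3 F 5) F₀ 1 P) :
    ∃ T ∈ GU 3 F 5, ∀ g : GL (Fin 3) F,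
      g ∈ subfieldSubgroup F₀ P ↔ T⁻¹ * g * T ∈ subfieldSubgroup F₀ 1 := by
  classical
  obtain ⟨U, ε, hε0, hεF, hU, hgram⟩ := e3s_frame hF F₀ P hc hr
  have hε5 : ε ^ 5 = ε := pow_five_of_mem hF F₀ hc hεF
  obtain ⟨μ, hμ⟩ := norm_surjective hF ε⁻¹ (by rw [inv_pow, hε5])
  have hμ0 : μ ≠ 0 := by
    rintro rfl
    rw [zero_pow (by norm_num)] at hμ
    exact inv_ne_zero hε0 hμ.symm
  let U₀ : Matrix (Fin 3) (Fin 3) F₀ := fun i a => ⟨U a i, hU a i⟩
  let Um : Matrix (Fin 3) (Fin 3) F := U₀.map F₀.subtype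
  have hUm : ∀ i a, Um i a = U a i := fun i a => rfl
  have hW : ∀ k b, ((P : Matrix (Fin 3) (Fin 3) F) * Um) k b =
      ((P : Matrix (Fin 3) (Fin 3) F) *ᵥ U b) k := by
    intro k b
    simp only [Matrix.mul_apply, Matrix.mulVec, dotProduct, hUm]
  have hG : adj 5 ((P : Matrix (Fin 3) (Fin 3) F) * Um) * ((P : Matrix (Fin 3) (Fin 3) F) * Um)
      = ε • (1 : Matrix (Fin 3) (Fin 3) F) := by
    ext a b
    have h1 := hgram b a
    rw [Matrix.mul_apply]
    simp only [adj, hW, Matrix.smul_apply, Matrix.one_apply, smul_eq_mul]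
    have h2 : ∑ k, ((P : Matrix (Fin 3) (Fin 3) F) *ᵥ U a) k ^ 5 *
        ((P : Matrix (Fin 3) (Fin 3) F) *ᵥ U b) k =
        hermForm 3 F 5 ((P : Matrix (Fin 3) (Fin 3) F) *ᵥ U b)
          ((P : Matrix (Fin 3) (Fin 3) F) *ᵥ U a) := by
      simp only [hermForm]
      exact Finset.sum_congr rfl fun k _ => mul_comm _ _
    rw [h2, h1]
    by_cases hab : a = b
    · subst hab; simp
    · rw [if_neg (fun h => hab h.symm), if_neg hab, mul_zero]
  have hdetW : ((P : Matrix (Fin 3) (Fin 3) F) * Um).det ≠ 0 := by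
    intro h0
    have := congrArg Matrix.det hG
    rw [Matrix.det_mul, h0, mul_zero, Matrix.det_smul, Matrix.det_one, mul_one] at this
    exact pow_ne_zero _ hε0 this.symm
  have hdetUm : Um.det ≠ 0 := by
    intro h0
    apply hdetW
    rw [Matrix.det_mul, h0, mul_zero]
  have hdetU₀ : U₀.det ≠ 0 := by
    intro h0
    apply hdetUm
    have : Um.det = F₀.subtype U₀.det := (RingHom.map_det F₀.subtype U₀).symm
    rw [this, h0, map_zero]
  let m : GL (Fin 3) F₀ := Matrix.GeneralLinearGroup.mkOfDetNeZero U₀ hdetU₀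
  let a : GL (Fin 3) F := Matrix.GeneralLinearGroup.map (F₀.subtype : F₀ →+* F) m
  have ha : (a : Matrix (Fin 3) (Fin 3) F) = Um := rfl
  let z : GL (Fin 3) F :=
    Units.map (Matrix.scalar (Fin 3) : F →+* Matrix (Fin 3) (Fin 3) F).toMonoidHom (Units.mk0 μ hμ0)
  have hz : (z : Matrix (Fin 3) (Fin 3) F) = μ • (1 : Matrix (Fin 3) (Fin 3) F) := by
    show Matrix.scalar (Fin 3) μ = _
    simp [Matrix.smul_one_eq_diagonal]
  set B : Subgroup (GL (Fin 3) F) :=
    (Matrix.GeneralLinearGroup.map (F₀.subtype : F₀ →+* F)).range ⊔ scalars (Fin 3) F with hB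
  have hw : a * z ∈ B := by
    apply Subgroup.mul_mem
    · exact (le_sup_left : _ ≤ B) ⟨m, rfl⟩
    · exact (le_sup_right : _ ≤ B) ⟨Units.mk0 μ hμ0, rfl⟩
  refine ⟨P * (a * z), ?_, ?_⟩
  · rw [mem_GU_iff_adj hF]
    have hT : ((P * (a * z) : GL (Fin 3) F) : Matrix (Fin 3) (Fin 3) F) =
        μ • ((P : Matrix (Fin 3) (Fin 3) F) * Um) := by
      rw [Units.val_mul, Units.val_mul, ha, hz, Matrix.mul_smul, Matrix.mul_one, Matrix.mul_smul]
    rw [hT, adj_smul, Matrix.smul_mul, Matrix.mul_smul, hG, smul_smul, smul_smul]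
    have : μ ^ 5 * μ * ε = 1 := by
      have h6 : μ ^ 5 * μ = ε⁻¹ := by rw [← pow_succ]; exact hμ
      rw [h6, inv_mul_cancel₀ hε0]
    rw [this, one_smul]
  · intro g
    unfold subfieldSubgroup
    rw [← hB, mem_map_conj_iff, mem_map_conj_iff]
    have e : (1 : GL (Fin 3) F)⁻¹ * ((P * (a * z))⁻¹ * g * (P * (a * z))) * 1 =
        (a * z)⁻¹ * (P⁻¹ * g * P) * (a * z) := by
      group
    rw [e]
    constructor
    · intro h
      exact B.mul_mem (B.mul_mem (B.inv_mem hw) h) hw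
    · intro h
      have := B.mul_mem (B.mul_mem hw h) (B.inv_mem hw)
      have e2 : (a * z) * ((a * z)⁻¹ * (P⁻¹ * g * P) * (a * z)) * (a * z)⁻¹ = P⁻¹ * g * P := by
        group
      rwa [e2] at this

end Cfsg.Agent.Lib.Helper60.SU3
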